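import Mathlib
import Cfsg.Agent.Lib.Weyl.RootSys
import Cfsg.Agent.Lib.RGD.Length

/-! Words in the Coxeter groups of the Chevalley data; their centres and generation by a Coxeter element. -/

set_option autoImplicit false

namespace CfsgLib.Weyl

open Cfsg.Lie CfsgLib.RGD

theorem W_ext {ι κ : Type} [Fintype κ] [DecidableEq κ] (Φ : RootSys ι κ) {x y : Equiv.Perm ι} (hx : x ∈ Φ.W)
    (hy : y ∈ Φ.W) (h : ∀ i, x (Φ.simple i) = y (Φ.simple i)) : x = y :=
  Equiv.ext fun r => Φ.rt_inj _ _ (funext fun j => by simp only [Φ.rt_apply_eq_sum hx r, Φ.rt_apply_eq_sum hy r, h])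

theorem apply_eq_neg {ι κ : Type} [Fintype κ] [DecidableEq κ] (Φ : RootSys ι κ) {x : Equiv.Perm ι} (hx : x ∈ Φ.W)
    (h : ∀ i, x (Φ.simple i) = Φ.neg (Φ.simple i)) (r : ι) : x r = Φ.neg r :=
  Φ.rt_inj _ _ (funext fun j => by simp [Φ.rt_apply_eq_sum hx r, h, Φ.rt_neg, Φ.rt_simple])

theorem central_W {ι κ : Type} [Fintype κ] [DecidableEq κ] (Φ : RootSys ι κ) {z : Equiv.Perm ι} (hz : z ∈ Φ.W)
    (hc : ∀ i, Φ.s i * z = z * Φ.s i) (ρ : κ → ℕ) (a : κ) (conn : ∀ j, j = a ∨ ∃ i, ρ i < ρ j ∧ Φ.A i j ≠ 0) :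
    z = 1 ∨ ∀ i, z (Φ.simple i) = Φ.neg (Φ.simple i) := by
  have h1 : ∀ i, z (Φ.simple i) = Φ.simple i ∨ z (Φ.simple i) = Φ.neg (Φ.simple i) := fun i =>
    Φ.reduced _ _ fun j hj => by
      have := Φ.rt_s i (z (Φ.simple i)) j
      rw [← Equiv.Perm.mul_apply, hc, Φ.mul_s_apply_simple hz, Φ.rt_neg, if_neg hj] at this
      omega
  have h2 : ∀ i j, Φ.A i j ≠ 0 → z (Φ.simple i) = Φ.simple i → z (Φ.simple j) = Φ.simple j := fun i j h e =>
    (h1 j).resolve_right fun e' => by
      have := Φ.wt_apply hz e (Φ.simple j)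
      rw [e', Φ.wt_neg, Φ.wt_simple] at this
      omega
  have h3 : ∀ j, z (Φ.simple j) = Φ.simple j ↔ z (Φ.simple a) = Φ.simple a := fun j => by
    induction j using (measure ρ).wf.induction with
    | _ j ih =>
    obtain rfl | ⟨i, h4, h5⟩ := conn j
    · rfl
    · refine Iff.trans ⟨h2 j i fun e => ?_, h2 i j h5⟩ (ih i h4)
      simpa [e, h5, (Φ.d_pos i).ne'] using Φ.d_symm i j
  by_cases e : z (Φ.simple a) = Φ.simple a
  · exact .inl (W_ext Φ hz (one_mem _) fun i => (h3 i).2 e)
  · exact .inr fun i => (h1 i).resolve_left fun e' => e ((h3 i).1 e')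

variable {D : ChevalleyDatum} {ds : List ℕ} {C A S T : ℕ}

/-- the value of a word in the Coxeter group -/
def cw (D : ChevalleyDatum) (L : List ℕ) : (coxM D).Group := (L.map (coxS D)).prod

theorem cw_range : ((List.finRange D.rank).map (coxM D).simple).prod = cw D (List.range D.rank) := by
  rw [cw, ← List.map_coe_finRange_eq_range, List.map_map]
  exact congrArg List.prod (List.map_congr_left fun i _ => (coxS_val D i).symm)

theorem cw_append (L L' : List ℕ) : cw D (L ++ L') = cw D L * cw D L' := by simp [cw]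

theorem cw_reverse (L : List ℕ) : cw D L.reverse = (cw D L)⁻¹ := by
  rw [cw, cw, List.prod_inv_reverse, List.map_map, List.map_reverse]
  refine congrArg (fun L => List.prod (List.reverse L)) (List.map_congr_left fun i _ => ?_)
  by_cases h : i < D.rank
  · exact eq_inv_of_mul_eq_one_left (coxS_sq D i h)
  · simp [coxS, h]

theorem rootHom_mem (h : RtOK D) (x : (coxM D).Group) : rootHom h.root x ∈ (rootSys h).W := by
  rw [rootSys_W, ← range_rootHom]
  exact ⟨x, rfl⟩

theorem rootHom_cw (h : RootOK D) (ht : TablesOK D C A S T) {L : List ℕ} (hL : ∀ i ∈ L, i < D.rank)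
    (r : Fin D.nroots) : (rootHom h (cw D L) r : ℕ) = L.foldr (actT T) r := by
  induction L with
  | nil => simp [cw]
  | cons i L ih =>
    have hi := hL i (by simp)
    rw [cw, List.map_cons, List.prod_cons, map_mul, Equiv.Perm.mul_apply, rootHom_coxS h i hi, reflPerm_val h hi,
      ht.refl_eq (fun j hj => ht.simple_eq j hj ▸ h.simple_lt j hj) i hi _ (Fin.is_lt _), ← cw,
      ih fun j hj => hL j (by simp [hj]), List.foldr_cons]

theorem rootHom_cw_simple (h : RtOK D) (ht : TablesOK D C A S T) {L : List ℕ} (hL : L.all (· < D.rank))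
    (i : Fin D.rank) : (rootHom h.root (cw D L) ((rootSys h).simple i) : ℕ) = L.foldr (actT T) (actT S 0 i) := by
  rw [rootHom_cw h.root ht (by simpa using hL), rootSys_simple, ht.simple_eq i i.2]

theorem neg_simple_val (h : RtOK D) (ht : TablesOK D C A S T) (i : Fin D.rank) :
    ((rootSys h).neg ((rootSys h).simple i) : ℕ) = D.nroots - 1 - actT S 0 i := by
  rw [rootSys_neg, ht.neg_eq _ (Fin.is_lt _), rootSys_simple, ht.simple_eq i i.2]

theorem center_cases (hc : HasChain D ds) (h : RtOK D) (ht : TablesOK D C A S T) {a : ℕ} (ha : a < D.rank)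
    (conn : ∀ j < D.rank, j = a ∨ ∃ i < D.rank, i.dist a < j.dist a ∧ coT A (actT S 0 j) i ≠ 0)
    {z : (coxM D).Group} (hz : z ∈ Subgroup.center _) :
    z = 1 ∨ ∀ i, rootHom h.root z ((rootSys h).simple i) = (rootSys h).neg ((rootSys h).simple i) := by
  refine (central_W _ (rootHom_mem h z) (fun i => ?_) (fun i => (i : ℕ).dist a) ⟨a, ha⟩ fun j => ?_).imp_left
    fun e => hc.rootHom_injective (e.trans (map_one _).symm)
  · rw [rootSys_s_eq, ← rootHom_simple, ← map_mul, ← map_mul, Subgroup.mem_center_iff.1 hz]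
  · refine (conn j j.2).imp Fin.ext fun ⟨i, h1, h2, h3⟩ => ⟨⟨i, h1⟩, h2, ?_⟩
    rwa [rootSys_A, ht.cartan_eq i h1 _ (h.root.simple_lt j j.2), ht.simple_eq j j.2]

theorem center_two (hc : HasChain D ds) (h : RtOK D) (ht : TablesOK D C A S T) {a : ℕ} (ha : a < D.rank)
    (conn : ∀ j < D.rank, j = a ∨ ∃ i < D.rank, i.dist a < j.dist a ∧ coT A (actT S 0 j) i ≠ 0) (k : ℕ)
    (hk : ∀ i < D.rank, (List.replicate k (List.range D.rank)).flatten.foldr (actT T) (actT S 0 i) =
      D.nroots - 1 - actT S 0 i) : Nat.card (Subgroup.center (coxM D).Group) = 2 ∧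
      Subgroup.center (coxM D).Group ≤ Subgroup.zpowers ((List.finRange D.rank).map (coxM D).simple).prod := by
  have h1 : ∀ k, cw D (List.replicate k (List.range D.rank)).flatten = cw D (List.range D.rank) ^ k := fun k => by
    induction k with
    | zero => simp [cw]
    | succ k ih => rw [List.replicate_succ, List.flatten_cons, cw_append, ih, pow_succ']
  have h2 := apply_eq_neg _ (rootHom_mem h (cw D (List.range D.rank) ^ k)) fun i => Fin.ext <| by
    rw [← h1, rootHom_cw_simple h ht (by simp), hk i i.2, neg_simple_val h ht]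
  have h3 : ∀ z, z ∈ Subgroup.center _ ↔ z = 1 ∨ z = cw D (List.range D.rank) ^ k := fun z =>
    ⟨fun hz => (center_cases hc h ht ha conn hz).imp_right fun e => hc.rootHom_injective
      (W_ext _ (rootHom_mem h _) (rootHom_mem h _) fun i => (e i).trans (h2 _).symm), by
      rintro (rfl | rfl)
      · exact one_mem _
      · refine Subgroup.mem_center_iff.2 fun g => hc.rootHom_injective (Equiv.ext fun r => ?_)
        simp only [map_mul, Equiv.Perm.mul_apply, h2, (rootSys h).apply_neg (rootHom_mem h g)]⟩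
  refine ⟨Nat.card_eq_two_iff' 1 |>.2 ⟨⟨_, (h3 _).2 (.inr rfl)⟩, fun e => ?_, fun z e =>
    Subtype.ext (((h3 _).1 z.2).resolve_left fun e' => e (Subtype.ext e'))⟩, fun z hz => ?_⟩
  · have := h2 ((rootSys h).simple ⟨a, ha⟩)
    rw [(Subgroup.mk_eq_one _).1 e, map_one] at this
    exact (rootSys h).neg_ne _ this.symm
  · rw [cw_range]
    obtain rfl | rfl := (h3 z).1 hz
    exacts [one_mem _, pow_mem (Subgroup.mem_zpowers _) k]

theorem center_one (hc : HasChain D ds) (h : RtOK D) (ht : TablesOK D C A S T) {a : ℕ} (ha : a < D.rank)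
    (conn : ∀ j < D.rank, j = a ∨ ∃ i < D.rank, i.dist a < j.dist a ∧ coT A (actT S 0 j) i ≠ 0) (L : List ℕ)
    (hL : L.all (· < D.rank)) (h1 : ∀ i < D.rank, 2 * L.foldr (actT T) (actT S 0 i) < D.nroots)
    (h2 : L.foldr (actT T) (actT S 0 a) ≠ D.nroots - 1 - actT S 0 a) : Subgroup.center (coxM D).Group = ⊥ := by
  refine eq_bot_iff.2 fun z hz => (center_cases hc h ht ha conn hz).resolve_right fun e => h2 ?_
  have h3 : ∀ i, rootHom h.root (cw D L * z) ((rootSys h).simple i) =
      (rootSys h).neg (rootHom h.root (cw D L) ((rootSys h).simple i)) := fun i => by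
    rw [map_mul, Equiv.Perm.mul_apply, e, (rootSys h).apply_neg (rootHom_mem h _)]
  have h4 := h3 ⟨a, ha⟩
  rw [(rootSys h).eq_one_of_pos_simple (rootHom_mem h (cw D L * z)) fun i => by
    rw [h3, RootSys.pos_neg_iff, rootSys_neg_iff, h.root.isNeg_iff, rootHom_cw_simple h ht hL]
    exact h1 i i.2, Equiv.Perm.one_apply, eq_comm, RootSys.neg_eq_iff, Fin.ext_iff, rootHom_cw_simple h ht hL,
    neg_simple_val h ht] at h4
  exact h4

/-- letters: the Coxeter element, its inverse, and the fundamental reflections -/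
def letter (n l : ℕ) : List ℕ := if l = 0 then List.range n else if l = 1 then (List.range n).reverse else [l - 2]

theorem gen_cox (hc : HasChain D ds) (h : RtOK D) (ht : TablesOK D C A S T) (ts : List ℕ) (W : List (List ℕ))
    (h1 : ts.all (· < D.rank))
    (h2 : ts.Pairwise fun a b => actT T a (actT S 0 a) ≠ actT T b (actT S 0 a))
    (h3 : ∀ i < D.rank, (∀ l ∈ W.getD i [], l < 2 ∨ l - 2 ∈ ts) ∧ ∀ j < D.rank,
      ((W.getD i []).flatMap (letter D.rank)).foldr (actT T) (actT S 0 j) = actT T i (actT S 0 j)) :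
    ∃ U : Finset (coxM D).Group, U.card = ts.length ∧
      (∀ t ∈ U, ∃ (g : (coxM D).Group) (i : Fin D.rank), t = g * (coxM D).simple i * g⁻¹) ∧
      Subgroup.closure (({((List.finRange D.rank).map (coxM D).simple).prod} : Set (coxM D).Group) ∪ ↑U) = ⊤ := by
  classical
  have h4 : ∀ a ∈ ts, a < D.rank := by simpa using h1
  have h5 : ∀ a, coxS D a = cw D [a] := fun a => by simp [cw]
  refine ⟨(ts.map (coxS D)).toFinset, ?_, fun t ht => ?_, ?_⟩
  · rw [List.toFinset_card_of_nodup (List.pairwise_map.2 (h2.imp_of_mem fun {a b} ha hb e e' => e ?_)), List.length_map]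
    have := rootHom_cw_simple h ht (L := [a]) (by simp [h4 a ha]) ⟨a, h4 a ha⟩
    rwa [← h5, e', h5, rootHom_cw_simple h ht (by simp [h4 b hb]), eq_comm] at this
  · obtain ⟨a, ha, rfl⟩ := List.mem_map.1 (List.mem_toFinset.1 ht)
    exact ⟨1, ⟨a, h4 a ha⟩, by simp [coxS_of_lt D (h4 a ha)]⟩
  rw [eq_top_iff, ← closure_coxS, Subgroup.closure_le, cw_range]
  rintro _ ⟨i, hi, rfl⟩
  obtain ⟨h6, h7⟩ := h3 i hi
  have h8 : cw D ((W.getD i []).flatMap (letter D.rank)) = cw D [i] :=
    hc.rootHom_injective (W_ext _ (rootHom_mem h _) (rootHom_mem h _) fun j => Fin.ext <| by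
      rw [rootHom_cw_simple h ht (L := [i]) (by simp [hi]), rootHom_cw_simple h ht, h7 j j.2]
      · rfl
      simp only [List.all_flatMap, List.all_eq_true, decide_eq_true_eq, letter]
      intro l hl x
      split_ifs <;> simp +contextual
      exact fun _ => h4 _ ((h6 l hl).resolve_left (by omega)))
  rw [h5, ← h8]
  generalize W.getD i [] = L at h6
  induction L with
  | nil => exact one_mem _
  | cons l L ih =>
    rw [List.flatMap_cons, cw_append]
    refine mul_mem ?_ (ih fun l hl => h6 l (by simp [hl]))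
    unfold letter
    split_ifs
    · exact Subgroup.subset_closure (.inl rfl)
    · exact cw_reverse (D := D) _ ▸ inv_mem (Subgroup.subset_closure (.inl rfl))
    · exact Subgroup.subset_closure (.inr (by
        simpa [← h5] using ⟨_, (h6 l (by simp)).resolve_left (by omega), rfl⟩))

end CfsgLib.Weyl
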